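import Cfsg.Agent.H562.FpfWeights2
import Cfsg.Agent.SignalizersComponents.NoFixedGen
import Cfsg.Agent.Lib.CoprimeCommutator
import Cfsg.Agent.H851.P1
import Cfsg.Agent.H851.P2
import Cfsg.Agent.H851.P3

/-!
# The minimal situation

`Γ = Q T F H`, `Q` a normal `q`-group, `T` a `t`-group, `F H` a group of order `f e` with `e ∣ f - 1`
acting on `Q`, `T` and on the representation space without nontrivial fixed points.
-/

set_option autoImplicit false

namespace Cfsg.Agent.H562.FpfCore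

open Module Cfsg.Agent.OddOrderLocal.Thm34Weights Cfsg.Agent.H562.FpfWeights

attribute [local instance] wtAction

/-- the minimal situation -/
structure Core {k : Type*} [Field k] {Γ : Type*} [Group Γ] {V : Type*} [AddCommGroup V] [Module k V]
    (ρ : Representation k Γ V) (Q T F H : Subgroup Γ) (q t : ℕ) : Prop where
  hq : q.Prime
  ht : t.Prime
  hqt : q ≠ t
  hQ : IsPGroup q Q
  hT : IsPGroup t T
  hF : (Nat.card F).Prime
  hH : (Nat.card H).Prime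
  hef : Nat.card H ∣ Nat.card F - 1
  hHF : ∀ h ∈ H, ∀ a ∈ F, h * a * h⁻¹ ∈ F
  hFT : ∀ a ∈ F, ∀ y ∈ T, a * y * a⁻¹ ∈ T
  hHT : ∀ a ∈ H, ∀ y ∈ T, a * y * a⁻¹ ∈ T
  hqf : q ≠ Nat.card F
  hqe : q ≠ Nat.card H
  htf : t ≠ Nat.card F
  hte : t ≠ Nat.card H
  hqk : (q : k) ≠ 0
  hek : (Nat.card H : k) ≠ 0
  hfk : (Nat.card F : k) ≠ 0
  hCQ : ∀ x ∈ Q, (∀ a ∈ F, a * x = x * a) → (∀ a ∈ H, a * x = x * a) → x = 1
  hCT : ∀ x ∈ T, (∀ a ∈ F, a * x = x * a) → (∀ a ∈ H, a * x = x * a) → x = 1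
  hV : ∀ v : V, (∀ a ∈ F, ρ a v = v) → (∀ a ∈ H, ρ a v = v) → v = 0
  hgen : Q ⊔ (T ⊔ (F ⊔ H)) = ⊤
  hfaith : ∀ y ∈ Q, (∀ v, ρ y v = v) → y = 1
  hQT : ⁅Q, T⁆ = Q
  hQ1 : Q ≠ ⊥
  hminT : ∀ T₁ : Subgroup Γ, T₁ ≤ T → T₁ ≠ T → (∀ a ∈ F, ∀ y ∈ T₁, a * y * a⁻¹ ∈ T₁) →
    (∀ a ∈ H, ∀ y ∈ T₁, a * y * a⁻¹ ∈ T₁) → T₁ ≤ Subgroup.centralizer (Q : Set Γ)
  hminQ : ∀ Q₁ : Subgroup Γ, Q₁ ≤ Q → Q₁ ≠ Q → Q₁.Normal → T ≤ Subgroup.centralizer (Q₁ : Set Γ)

theorem not_dvd_card {Γ : Type*} [Group Γ] [Finite Γ] {q p : ℕ} (hq : q.Prime) (hp : p.Prime)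
    (hqp : q ≠ p) {Q : Subgroup Γ} (hQ : IsPGroup q Q) {Q₁ : Subgroup Γ} (h : Q₁ ≤ Q) :
    ¬ p ∣ Nat.card Q₁ := by
  intro h1
  have : Fact q.Prime := ⟨hq⟩
  obtain ⟨n, hn⟩ := IsPGroup.iff_card.1 hQ
  have h2 := (h1.trans (Subgroup.card_dvd_of_le h))
  rw [hn] at h2
  exact hqp ((Nat.prime_dvd_prime_iff_eq hp hq).1 (hp.dvd_of_dvd_pow h2)).symm

theorem cast_ne_zero {k : Type*} [Field k] {Γ : Type*} [Group Γ] [Finite Γ] {q : ℕ} (hq : q.Prime)
    (hqk : (q : k) ≠ 0) {Q : Subgroup Γ} (hQ : IsPGroup q Q) {Q₁ : Subgroup Γ} (h : Q₁ ≤ Q) :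
    (Nat.card Q₁ : k) ≠ 0 := by
  have : Fact q.Prime := ⟨hq⟩
  obtain ⟨n, hn⟩ := IsPGroup.iff_card.1 (hQ.to_le h)
  rw [hn, Nat.cast_pow]
  exact pow_ne_zero _ hqk

theorem le_normalizer_of_conj {Γ : Type*} [Group Γ] {A T : Subgroup Γ}
    (h : ∀ a ∈ A, ∀ y ∈ T, a * y * a⁻¹ ∈ T) : A ≤ Subgroup.normalizer (T : Set Γ) := by
  intro a ha
  rw [Subgroup.mem_normalizer_iff]
  intro y
  refine ⟨fun hy => h a ha y hy, fun hy => ?_⟩
  have := h a⁻¹ (inv_mem ha) _ hy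
  have h2 : a⁻¹ * (a * y * a⁻¹) * a⁻¹⁻¹ = y := by group
  rwa [h2] at this

theorem conj_sup {Γ : Type*} [Group Γ] {A B : Subgroup Γ} {h : Γ} (hA : ∀ y ∈ A, h * y * h⁻¹ ∈ A)
    (hB : ∀ y ∈ B, h * y * h⁻¹ ∈ B) : ∀ y ∈ A ⊔ B, h * y * h⁻¹ ∈ A ⊔ B := by
  have h1 : A ⊔ B ≤ (A ⊔ B).comap (MulAut.conj h).toMonoidHom := by
    apply sup_le
    · intro y hy
      exact Subgroup.mem_sup_left (hA y hy)
    · intro y hy
      exact Subgroup.mem_sup_right (hB y hy)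
  intro y hy
  exact h1 hy

theorem commutator_ne {Γ : Type*} [Group Γ] (K : Subgroup Γ) [Group.IsSolvable K] (hK : K ≠ ⊥) :
    ⁅K, K⁆ ≠ K := by
  have hn : Nontrivial K := (Subgroup.nontrivial_iff_ne_bot K).2 hK
  intro h
  have h1 := Group.IsSolvable.commutator_lt_top_of_nontrivial K
  apply h1.ne
  rw [commutator_def, ← Subgroup.map_subtype_inj, Subgroup.map_commutator, ← MonoidHom.range_eq_map,
    Subgroup.range_subtype]
  exact h

namespace Core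

variable {k : Type*} [Field k] {Γ : Type*} [Group Γ] [Finite Γ] {V : Type*} [AddCommGroup V] [Module k V]
variable {ρ : Representation k Γ V} {Q T F H : Subgroup Γ} {q t : ℕ}

omit [Finite Γ] in
theorem center_comm (Q : Subgroup Γ) : ∀ a ∈ Q ⊓ Subgroup.centralizer (Q : Set Γ),
    ∀ b ∈ Q ⊓ Subgroup.centralizer (Q : Set Γ), a * b = b * a := by
  intro a ha b hb
  exact Subgroup.mem_centralizer_iff.1 hb.2 a ha.1

theorem solvable_of_le (hq : q.Prime) (hQ : IsPGroup q Q) {Q₁ : Subgroup Γ} (h : Q₁ ≤ Q) :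
    Group.IsSolvable Q₁ := by
  have : Fact q.Prime := ⟨hq⟩
  have := (hQ.to_le h).isNilpotent
  infer_instance

/-- the situation for a commutative normal subgroup of `Q` -/
theorem sit (c : Core ρ Q T F H q t) {Z : Subgroup Γ} (hZn : Z.Normal) (hZQ : Z ≤ Q)
    (hZ : ∀ a ∈ Z, ∀ b ∈ Z, a * b = b * a) : Sit ρ Z T F H where
  hZn := hZn
  hZ := hZ
  hZk := cast_ne_zero c.hq c.hqk c.hQ hZQ
  hF := c.hF
  hH := c.hH
  hef := c.hef
  hHF := c.hHF
  hFT := c.hFT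
  hHT := c.hHT
  hFZ := not_dvd_card c.hq c.hF c.hqf c.hQ hZQ
  hHZ := not_dvd_card c.hq c.hH c.hqe c.hQ hZQ
  hFTc := not_dvd_card c.ht c.hF c.htf c.hT le_rfl
  hHTc := not_dvd_card c.ht c.hH c.hte c.hT le_rfl
  hTs := solvable_of_le c.ht c.hT le_rfl
  hCZ := fun x hx => c.hCQ x (hZQ hx)
  hV := c.hV

omit [Finite Γ] in
theorem hFnT (c : Core ρ Q T F H q t) : F ≤ Subgroup.normalizer (T : Set Γ) := le_normalizer_of_conj c.hFT

omit [Finite Γ] in
theorem hHnT (c : Core ρ Q T F H q t) : H ≤ Subgroup.normalizer (T : Set Γ) := le_normalizer_of_conj c.hHT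

omit [Finite Γ] in
theorem hHnF (c : Core ρ Q T F H q t) : H ≤ Subgroup.normalizer (F : Set Γ) := le_normalizer_of_conj c.hHF

omit [Finite Γ] in
/-- the decomposition of the elements of `Γ` -/
theorem dec (c : Core ρ Q T F H q t) [Q.Normal] (g : Γ) :
    ∃ a ∈ F, ∃ x ∈ T, ∃ h ∈ H, ∃ y ∈ Q, g = a * x * h * y := by
  have h1 : g ∈ (((T ⊔ (F ⊔ H)) ⊔ Q : Subgroup Γ) : Set Γ) := by
    rw [sup_comm, c.hgen]; trivial
  rw [Subgroup.coe_mul_of_left_le_normalizer_right _ Q (le_top.trans_eq Q.normalizer_eq_top.symm)] at h1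
  obtain ⟨u, hu, y, hy, rfl⟩ := h1
  rw [← sup_assoc] at hu
  have hHn : H ≤ Subgroup.normalizer ((T ⊔ F : Subgroup Γ) : Set Γ) :=
    le_normalizer_of_conj (fun h hh => conj_sup (c.hHT h hh) (c.hHF h hh))
  rw [Subgroup.coe_mul_of_right_le_normalizer_left _ H hHn] at hu
  obtain ⟨w, hw, h, hh, rfl⟩ := hu
  rw [SetLike.mem_coe, sup_comm] at hw
  rw [← SetLike.mem_coe, Subgroup.coe_mul_of_left_le_normalizer_right F T c.hFnT] at hw
  obtain ⟨a, ha, x, hx, rfl⟩ := hw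
  exact ⟨a, ha, x, hx, h, hh, y, hy, rfl⟩

omit [Finite Γ] in
theorem smul_eq_of_centralizer {Z : Subgroup Γ} [Z.Normal] {y : Γ}
    (hy : ∀ z ∈ Z, y * z = z * y) (ψ : Z → k) : y • ψ = ψ := by
  funext z
  rw [wt_smul_def]
  congr 1
  apply Subtype.ext
  rw [MulAut.conjNormal_apply]
  have := hy z z.2
  rw [inv_inv, mul_assoc, ← this, ← mul_assoc, inv_mul_cancel, one_mul]

omit [Finite Γ] in
theorem hdec (c : Core ρ Q T F H q t) [Q.Normal] {Z : Subgroup Γ} [Z.Normal]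
    (hZ : ∀ y ∈ Q, ∀ z ∈ Z, y * z = z * y) (g : Γ) :
    ∃ a ∈ F, ∃ x ∈ T, ∃ h ∈ H, ∀ ψ : Z → k, g • ψ = a • x • h • ψ := by
  obtain ⟨a, ha, x, hx, h, hh, y, hy, rfl⟩ := c.dec g
  refine ⟨a, ha, x, hx, h, hh, ?_⟩
  intro ψ
  rw [mul_smul, smul_eq_of_centralizer (hZ y hy), mul_smul, mul_smul]

omit [Finite Γ] in
theorem card_F_ne_two (c : Core ρ Q T F H q t) : Nat.card F ≠ 2 := by
  intro h
  have h1 := c.hef
  rw [h] at h1
  exact c.hH.one_lt.ne' (Nat.dvd_one.1 h1)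

/-- the elements of `Q` acting trivially on all weight spaces in the orbit of `χ` -/
def dsub (ρ : Representation k Γ V) (Q : Subgroup Γ) [Q.Normal] {Z : Subgroup Γ} [Z.Normal] (χ : Z → k) :
    Subgroup Γ where
  carrier := {y | y ∈ Q ∧ ∀ g : Γ, ∀ w ∈ wt ρ Z (g • χ), ρ y w = w}
  mul_mem' := by
    rintro a b ⟨ha, ha'⟩ ⟨hb, hb'⟩
    refine ⟨Q.mul_mem ha hb, fun g w hw => ?_⟩
    rw [map_mul, End.mul_apply, hb' g w hw, ha' g w hw]
  one_mem' := ⟨Q.one_mem, fun g w _ => by rw [map_one, End.one_apply]⟩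
  inv_mem' := by
    rintro a ⟨ha, ha'⟩
    refine ⟨Q.inv_mem ha, fun g w hw => ?_⟩
    conv_lhs => rw [← ha' g w hw]
    rw [← End.mul_apply, ← map_mul, inv_mul_cancel, map_one, End.one_apply]

omit [Finite Γ] in
theorem mem_dsub {Q : Subgroup Γ} [Q.Normal] {Z : Subgroup Γ} [Z.Normal] {χ : Z → k} {y : Γ} :
    y ∈ dsub ρ Q χ ↔ y ∈ Q ∧ ∀ g : Γ, ∀ w ∈ wt ρ Z (g • χ), ρ y w = w := Iff.rfl

omit [Finite Γ] in
theorem dsub_le {Q : Subgroup Γ} [Q.Normal] {Z : Subgroup Γ} [Z.Normal] {χ : Z → k} :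
    dsub ρ Q χ ≤ Q := fun _ hy => hy.1

omit [Finite Γ] in
theorem dsub_normal {Q : Subgroup Γ} [Q.Normal] {Z : Subgroup Γ} [Z.Normal] {χ : Z → k} :
    (dsub ρ Q χ).Normal := by
  constructor
  rintro y ⟨hy, hy'⟩ g
  refine ⟨Subgroup.Normal.conj_mem inferInstance y hy g, ?_⟩
  intro g' w hw
  have h1 := smul_mem_wt hw g⁻¹
  rw [← mul_smul] at h1
  rw [map_mul, map_mul, End.mul_apply, End.mul_apply, hy' _ _ h1, ← End.mul_apply, ← map_mul,
    mul_inv_cancel, map_one, End.one_apply]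

omit [Finite Γ] in
theorem dsub_ne {Q : Subgroup Γ} [Q.Normal] {Z : Subgroup Γ} [Z.Normal] (hZQ : Z ≤ Q) {χ : Z → k}
    (hχ : wt ρ Z χ ≠ ⊥) (hχ1 : ∃ z, χ z ≠ 1) : dsub ρ Q χ ≠ Q := by
  intro h
  obtain ⟨z, hz⟩ := hχ1
  obtain ⟨v, hv, hv0⟩ := Submodule.exists_mem_ne_zero_of_ne_bot hχ
  have h1 : (z : Γ) ∈ dsub ρ Q χ := by rw [h]; exact hZQ z.2
  have h2 := h1.2 1 v (by rw [one_smul]; exact hv)
  rw [mem_wt.1 hv z] at h2
  have h9 : (χ z - 1) • v = 0 := by rw [sub_smul, one_smul, h2, sub_self]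
  rcases smul_eq_zero.1 h9 with h | h
  · exact hz (sub_eq_zero.1 h)
  · exact hv0 h

omit [Finite Γ] in
theorem T_dsub (c : Core ρ Q T F H q t) [Q.Normal] {Z : Subgroup Γ} [Z.Normal] (hZQ : Z ≤ Q) {χ : Z → k}
    (hχ : wt ρ Z χ ≠ ⊥) (hχ1 : ∃ z, χ z ≠ 1) :
    T ≤ Subgroup.centralizer ((dsub ρ Q χ : Subgroup Γ) : Set Γ) :=
  c.hminQ _ dsub_le (dsub_ne hZQ hχ hχ1) dsub_normal

theorem hcopTQ (c : Core ρ Q T F H q t) : (Nat.card T).Coprime (Nat.card Q) := by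
  have : Fact q.Prime := ⟨c.hq⟩
  have : Fact t.Prime := ⟨c.ht⟩
  exact IsPGroup.coprime_card_of_ne t q c.hqt.symm T Q c.hT c.hQ

/-- a proper `A`-invariant subgroup of `T` centralises `Q`, so `T` is not the join of two such -/
theorem T_or (c : Core ρ Q T F H q t) {T₁ T₂ : Subgroup Γ} (h1 : T₁ ≤ T)
    (h1F : ∀ a ∈ F, ∀ y ∈ T₁, a * y * a⁻¹ ∈ T₁) (h1H : ∀ a ∈ H, ∀ y ∈ T₁, a * y * a⁻¹ ∈ T₁)
    (h : T₁ ⊔ T₂ = T) (h2 : T₂ ≤ Subgroup.centralizer (Q : Set Γ)) : T₁ = T := by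
  by_contra hne
  have h3 := c.hminT T₁ h1 hne h1F h1H
  have h4 : T ≤ Subgroup.centralizer (Q : Set Γ) := by
    rw [← h]; exact sup_le h3 h2
  apply c.hQ1
  rw [← c.hQT, Subgroup.commutator_eq_bot_iff_le_centralizer]
  exact Subgroup.le_centralizer_iff.1 h4

/-- `Q` has no nontrivial `T`-fixed points modulo its derived subgroup -/
theorem CT (c : Core ρ Q T F H q t) [Q.Normal] :
    Q ⊓ Subgroup.centralizer (T : Set Γ) ≤ ⁅Q, Q⁆ := by
  have hn : (⁅Q, Q⁆ : Subgroup Γ).Normal := inferInstance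
  set φ := QuotientGroup.mk' (⁅Q, Q⁆ : Subgroup Γ) with hφ
  have hcomm : IsMulCommutative (Q.map φ) := by
    rw [← Subgroup.le_centralizer_iff_isMulCommutative, ← Subgroup.commutator_eq_bot_iff_le_centralizer]
    rw [← Subgroup.map_commutator, Subgroup.map_eq_bot_iff, hφ, QuotientGroup.ker_mk']
  have hcop : (Nat.card (T.map φ)).Coprime (Nat.card (Q.map φ)) := by
    apply Nat.Coprime.coprime_dvd_left (Subgroup.card_map_dvd _ φ)
    apply Nat.Coprime.coprime_dvd_right (Subgroup.card_map_dvd _ φ)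
    exact c.hcopTQ
  have hnorm : T.map φ ≤ Subgroup.normalizer (Q.map φ : Set (Γ ⧸ (⁅Q, Q⁆ : Subgroup Γ))) := by
    have : (Q.map φ).Normal := Subgroup.Normal.map inferInstance φ (QuotientGroup.mk'_surjective _)
    rw [Subgroup.normalizer_eq_top]; exact le_top
  have h1 := (Cfsg.Agent.S0055.result (T.map φ) (Q.map φ) hnorm hcop).1
  rw [← Subgroup.map_commutator, c.hQT] at h1
  rintro y ⟨hyQ, hyT⟩
  have h2 : φ y ∈ (Q.map φ ⊓ Subgroup.centralizer (T.map φ : Set (Γ ⧸ (⁅Q, Q⁆ : Subgroup Γ)))) ⊓ Q.map φ := by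
    refine ⟨⟨⟨y, hyQ, rfl⟩, ?_⟩, ⟨y, hyQ, rfl⟩⟩
    show φ y ∈ Subgroup.centralizer _
    rw [Subgroup.mem_centralizer_iff]
    rintro _ ⟨x, hx, rfl⟩
    rw [← map_mul, ← map_mul, Subgroup.mem_centralizer_iff.1 hyT x hx]
  rw [h1, Subgroup.mem_bot] at h2
  exact (QuotientGroup.eq_one_iff _).1 h2

/-- `Q` has no nontrivial `T`-fixed points modulo a subgroup containing the derived subgroup -/
theorem CT' (c : Core ρ Q T F H q t) [Q.Normal] {D : Subgroup Γ} (hD : ⁅Q, Q⁆ ≤ D) (hDQ : D ≤ Q)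
    (hTD : ∀ x ∈ T, ∀ y ∈ D, x * y * x⁻¹ ∈ D) :
    ∀ y ∈ Q, (∀ x ∈ T, y⁻¹ * (x * y * x⁻¹) ∈ D) → y ∈ D := by
  intro y hy hyT
  have hQD : Q ≤ Subgroup.normalizer (D : Set Γ) := by
    apply le_normalizer_of_conj
    intro a ha b hb
    have h1 : a * b * a⁻¹ = (a * b * a⁻¹ * b⁻¹) * b := by group
    rw [h1]
    exact D.mul_mem (hD (Subgroup.commutator_mem_commutator ha (hDQ hb))) hb
  obtain ⟨z, hz, hyz⟩ := Cfsg.Agent.S0022.result T Q (le_top.trans_eq Q.normalizer_eq_top.symm)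
    c.hcopTQ
    (Or.inr (solvable_of_le c.hq c.hQ le_rfl)) D hDQ hQD (le_normalizer_of_conj hTD) y hy (by
      intro x hx
      have h1 : x * y * x⁻¹ * y⁻¹ = y * (y⁻¹ * (x * y * x⁻¹)) * y⁻¹ := by group
      rw [h1]
      exact ((Subgroup.mem_normalizer_iff.1 (hQD hy)) _).1 (hyT x hx))
  have h2 : z ∈ D := hD (c.CT hz)
  have h3 : y = z * (y⁻¹ * z)⁻¹ := by group
  rw [h3]
  exact D.mul_mem h2 (D.inv_mem hyz)

/-- the restriction of a representation to a subgroup and an invariant subspace -/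
def resRep (ρ : Representation k Γ V) (S : Subgroup Γ) (W : Submodule k V)
    (h : ∀ g ∈ S, ∀ w ∈ W, ρ g w ∈ W) : Representation k S W where
  toFun g := (ρ g).restrict (h g g.2)
  map_one' := by
    ext w
    show ρ ((1 : S) : Γ) w = w
    rw [Subgroup.coe_one, map_one, End.one_apply]
  map_mul' a b := by
    ext w
    show ρ ((a * b : S) : Γ) w = ρ a (ρ b w)
    rw [Subgroup.coe_mul, map_mul, End.mul_apply]

omit [Finite Γ] in
theorem resRep_apply (ρ : Representation k Γ V) (S : Subgroup Γ) (W : Submodule k V)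
    (h : ∀ g ∈ S, ∀ w ∈ W, ρ g w ∈ W) (g : S) (w : W) : ((resRep ρ S W h g w : W) : V) = ρ g w := rfl

omit [Finite Γ] in
theorem stab_mem {Z : Subgroup Γ} [Z.Normal] {φ : Z → k} {g : Γ} (hg : g • φ = φ) {w : V}
    (hw : w ∈ wt ρ Z φ) : ρ g w ∈ wt ρ Z φ := by
  have := smul_mem_wt hw g
  rwa [hg] at this

/-- if `F` fixes the nontrivial weight `φ` of a central subgroup of `Q`, then `[Q, F]` is trivial on the
weight space -/
theorem commF (c : Core ρ Q T F H q t) [IsAlgClosed k] [FiniteDimensional k V] [Q.Normal]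
    {Z : Subgroup Γ} [Z.Normal] (hZQ : Z ≤ Q)
    (hZ : ∀ y ∈ Q, ∀ z ∈ Z, y * z = z * y) {φ : Z → k} (hφ1 : ∃ z, φ z ≠ 1)
    (hF : ∀ a ∈ F, a • φ = φ) : ∀ y ∈ Q, ∀ a ∈ F, ∀ w ∈ wt ρ Z φ, ρ (a * y) w = ρ (y * a) w := by
  have s := c.sit inferInstance hZQ (fun a ha b hb => hZ a (hZQ ha) b hb)
  obtain ⟨x, hx, hx1⟩ := exists_ne_one_of_prime F c.hF
  let S := MulAction.stabilizer Γ φ
  have hSW : ∀ g ∈ S, ∀ w ∈ wt ρ Z φ, ρ g w ∈ wt ρ Z φ := fun g hg w hw => stab_mem hg hw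
  have hQS : Q ≤ S := fun y hy => smul_eq_of_centralizer (hZ y hy) φ
  have hxS : x ∈ S := hF x hx
  have hK : Nat.card (Q.subgroupOf S) = Nat.card Q :=
    Nat.card_congr (Subgroup.subgroupOfEquivOfLe hQS).toEquiv
  have hQs := solvable_of_le c.hq c.hQ (le_refl Q)
  have h1 := Cfsg.Agent.SignalizersComponents.NoFixedGen.comm_of_no_fixed_algClosed
    (resRep ρ S (wt ρ Z φ) hSW) (Q.subgroupOf S) ⟨x, hxS⟩ c.hF c.card_F_ne_two
    (Subtype.ext (pow_card_eq_one_of_mem F hx))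
    (by
      rintro ⟨y, hyS⟩ hy
      exact Subgroup.Normal.conj_mem inferInstance y hy x)
    (Group.isSolvable_of_isSolvable_injective (f := (Subgroup.subgroupOfEquivOfLe hQS).toMonoidHom)
      (Subgroup.subgroupOfEquivOfLe hQS).injective)
    (by
      rw [hK]
      intro h
      exact not_dvd_card c.hq c.hH c.hqe c.hQ le_rfl ((c.hef.trans (dvd_pow_self _ two_ne_zero)).trans h))
    (by
      rw [hK]
      exact not_dvd_card c.hq c.hF c.hqf c.hQ le_rfl)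
    (by
      rw [hK]
      exact cast_ne_zero c.hq c.hqk c.hQ le_rfl)
    c.hfk
    (by
      rintro ⟨w, hw⟩ hxw
      apply Subtype.ext
      apply s.fixF hφ1 hF hw
      intro a ha
      have hbz := mem_zpowers_of_prime F c.hF hx hx1 ha
      rw [← mem_powers_iff_mem_zpowers] at hbz
      obtain ⟨n, rfl⟩ := hbz
      have hxw' : ρ x w = w := congrArg Subtype.val hxw
      have h6 : ∀ n : ℕ, ρ (x ^ n) w = w := by
        intro n
        induction n with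
        | zero => rw [pow_zero, map_one, End.one_apply]
        | succ n ih => rw [pow_succ, map_mul, End.mul_apply, hxw', ih]
      exact h6 n)
  have h2 : ∀ y ∈ Q, ∀ w ∈ wt ρ Z φ, ρ (x * y) w = ρ (y * x) w := by
    intro y hy w hw
    have h3 := h1 ⟨y, hQS hy⟩ hy
    have h4 := congrArg (fun f => ((f ⟨w, hw⟩ : wt ρ Z φ) : V)) h3
    exact h4
  intro y hy a ha w hw
  have hbz := mem_zpowers_of_prime F c.hF hx hx1 ha
  rw [← mem_powers_iff_mem_zpowers] at hbz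
  obtain ⟨n, rfl⟩ := hbz
  have h6 : ∀ n : ℕ, ∀ w ∈ wt ρ Z φ, ρ (x ^ n * y) w = ρ (y * x ^ n) w := by
    intro n
    induction n with
    | zero => intro w _; rw [pow_zero, one_mul, mul_one]
    | succ n ih =>
      intro w hw
      have h7 : ρ x w ∈ wt ρ Z φ := stab_mem (hF x hx) hw
      rw [pow_succ, mul_assoc, map_mul, End.mul_apply, h2 y hy w hw, ← End.mul_apply, ← map_mul,
        ← mul_assoc, map_mul _ (x ^ n * y), End.mul_apply, ih _ h7, ← End.mul_apply, ← map_mul, mul_assoc]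
  exact h6 n w hw

/-- a `Γ`-normal proper subgroup of `Q` together with the derived subgroup is proper -/
theorem sup_ne (c : Core ρ Q T F H q t) [Q.Normal] {D : Subgroup Γ} [D.Normal] (hD : D ≤ Q) (hDQ : D ≠ Q) :
    D ⊔ ⁅Q, Q⁆ ≠ Q := by
  intro h
  have h1 : ⁅Q.map (QuotientGroup.mk' D), Q.map (QuotientGroup.mk' D)⁆ = Q.map (QuotientGroup.mk' D) := by
    rw [← Subgroup.map_commutator]
    conv_rhs => rw [← h, Subgroup.map_sup]
    have : D.map (QuotientGroup.mk' D) = ⊥ := by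
      rw [Subgroup.map_eq_bot_iff, QuotientGroup.ker_mk']
    rw [this, bot_sup_eq]
  have h2 : Q.map (QuotientGroup.mk' D) ≠ ⊥ := by
    intro h3
    rw [Subgroup.map_eq_bot_iff, QuotientGroup.ker_mk'] at h3
    exact hDQ (le_antisymm hD h3)
  have hQs := solvable_of_le c.hq c.hQ (le_refl Q)
  have h3 : Group.IsSolvable (Q.map (QuotientGroup.mk' D)) := by
    exact Group.isSolvable_of_surjective (f := (QuotientGroup.mk' D).subgroupMap Q)
      ((QuotientGroup.mk' D).subgroupMap_surjective Q)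
  exact commutator_ne _ h2 h1

/-- the fixed points of `A` on `Q` modulo an invariant subgroup -/
theorem fixA (c : Core ρ Q T F H q t) [Q.Normal] {D : Subgroup Γ} (hDQ : D ≤ Q)
    (hQD : ∀ a ∈ Q, ∀ y ∈ D, a * y * a⁻¹ ∈ D)
    (hFD : ∀ a ∈ F, ∀ y ∈ D, a * y * a⁻¹ ∈ D) (hHD : ∀ a ∈ H, ∀ y ∈ D, a * y * a⁻¹ ∈ D) {y : Γ} (hy : y ∈ Q)
    (h1 : ∀ a ∈ F, a * y * a⁻¹ * y⁻¹ ∈ D) (h2 : ∀ a ∈ H, a * y * a⁻¹ * y⁻¹ ∈ D) : y ∈ D := by
  have hHFD : H ⊔ F ≤ Subgroup.normalizer (D : Set Γ) :=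
    sup_le (le_normalizer_of_conj hHD) (le_normalizer_of_conj hFD)
  have hcop : (Nat.card (H ⊔ F : Subgroup Γ)).Coprime (Nat.card Q) := by
    have hc : Nat.card (H ⊔ F : Subgroup Γ) ∣ Nat.card H * Nat.card F :=
      Cfsg.Agent.OddOrderLocal.DecompBasic.card_sup_dvd c.hHnF
    apply Nat.Coprime.coprime_dvd_left hc
    exact Nat.Coprime.mul_left ((Nat.Prime.coprime_iff_not_dvd c.hH).2 (not_dvd_card c.hq c.hH c.hqe c.hQ le_rfl))
      ((Nat.Prime.coprime_iff_not_dvd c.hF).2 (not_dvd_card c.hq c.hF c.hqf c.hQ le_rfl))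
  obtain ⟨z, hz, hyz⟩ := Cfsg.Agent.S0022.result (H ⊔ F) Q (le_top.trans_eq Q.normalizer_eq_top.symm)
    hcop (Or.inr (solvable_of_le c.hq c.hQ le_rfl)) D hDQ (le_normalizer_of_conj hQD) hHFD y hy (by
      intro a ha
      have h3 : a ∈ ((H ⊔ F : Subgroup Γ) : Set Γ) := ha
      rw [Subgroup.coe_mul_of_left_le_normalizer_right H F c.hHnF] at h3
      obtain ⟨h, hh, b, hb, rfl⟩ := h3
      have h4 : h * b * y * (h * b)⁻¹ * y⁻¹ = h * (b * y * b⁻¹ * y⁻¹) * h⁻¹ * (h * y * h⁻¹ * y⁻¹) := by group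
      show h * b * y * (h * b)⁻¹ * y⁻¹ ∈ D
      rw [h4]
      exact D.mul_mem (hHD h hh _ (h1 b hb)) (h2 h hh))
  have hz1 : z = 1 := by
    apply c.hCQ z hz.1
    · intro a ha
      exact Subgroup.mem_centralizer_iff.1 hz.2 a (Subgroup.mem_sup_right ha)
    · intro a ha
      exact Subgroup.mem_centralizer_iff.1 hz.2 a (Subgroup.mem_sup_left ha)
  rw [hz1, mul_one] at hyz
  exact inv_mem_iff.1 hyz

/-- the preimage of the centraliser of `Q / D` -/
def cmod (Q D : Subgroup Γ) [D.Normal] : Subgroup Γ :=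
  (Subgroup.centralizer (Q.map (QuotientGroup.mk' D) : Set (Γ ⧸ D))).comap (QuotientGroup.mk' D)

omit [Finite Γ] in
theorem cmod_normal (Q D : Subgroup Γ) [Q.Normal] [D.Normal] : (cmod Q D).Normal := by
  have : (Q.map (QuotientGroup.mk' D)).Normal :=
    Subgroup.Normal.map inferInstance _ (QuotientGroup.mk'_surjective _)
  have : (Subgroup.centralizer (Q.map (QuotientGroup.mk' D) : Set (Γ ⧸ D))).Normal := inferInstance
  exact Subgroup.Normal.comap this _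

omit [Finite Γ] in
theorem mem_cmod {Q D : Subgroup Γ} [D.Normal] {g : Γ} :
    g ∈ cmod Q D ↔ ∀ y ∈ Q, y * g * y⁻¹ * g⁻¹ ∈ D := by
  unfold cmod
  rw [Subgroup.mem_comap, Subgroup.mem_centralizer_iff]
  constructor
  · intro h y hy
    have h2 := h _ ⟨y, hy, rfl⟩
    rw [← QuotientGroup.eq_one_iff]
    show (QuotientGroup.mk' D) (y * g * y⁻¹ * g⁻¹) = 1
    rw [map_mul, map_mul, map_mul, h2, map_inv, map_inv, mul_inv_cancel_right, mul_inv_cancel]
  · rintro h _ ⟨y, hy, rfl⟩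
    have h2 := h y hy
    rw [← QuotientGroup.eq_one_iff] at h2
    have h3 : (QuotientGroup.mk' D) (y * g * y⁻¹ * g⁻¹) = 1 := h2
    have h4 : y * g = (y * g * y⁻¹ * g⁻¹) * (g * y) := by group
    rw [← map_mul, h4, map_mul, h3, one_mul, map_mul]

/-- if `[T, F]` centralises `Q / D` then `F` centralises `T` -/
theorem TCF (c : Core ρ Q T F H q t) [Q.Normal] {D : Subgroup Γ} [D.Normal]
    (hTD : T ≤ Subgroup.centralizer (D : Set Γ)) (hTF : ⁅T, F⁆ ≤ cmod Q D) :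
    T ⊓ Subgroup.centralizer (F : Set Γ) = T := by
  have hTFT : ⁅T, F⁆ ≤ T := by
    rw [Subgroup.commutator_le]
    intro x hx a ha
    have h2 : x * a * x⁻¹ * a⁻¹ = x * (a * x⁻¹ * a⁻¹) := by group
    rw [commutatorElement_def, h2]
    exact T.mul_mem hx (c.hFT a ha _ (T.inv_mem hx))
  have hTFQ : ⁅T, F⁆ ≤ Subgroup.centralizer (Q : Set Γ) := by
    apply Cfsg.Agent.Lib.CoprimeCommutator.le_centralizer_of_commutator_le ⁅T, F⁆ Q D
      (le_top.trans_eq Q.normalizer_eq_top.symm)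
    · exact Nat.Coprime.coprime_dvd_left (Subgroup.card_dvd_of_le hTFT) c.hcopTQ
    · rw [Subgroup.commutator_le]
      intro y hy g hg
      exact mem_cmod.1 (hTF hg) y hy
    · exact hTFT.trans hTD
  have hcopFT : (Nat.card F).Coprime (Nat.card T) :=
    (Nat.Prime.coprime_iff_not_dvd c.hF).2 (not_dvd_card c.ht c.hF c.htf c.hT le_rfl)
  have hTsplit := Cfsg.Agent.S0026.result F T c.hFnT hcopFT (Or.inr (solvable_of_le c.ht c.hT le_rfl))
  apply c.T_or inf_le_left _ _ (by rw [sup_comm]; exact hTsplit) hTFQ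
  · rintro a ha y ⟨hy, hy'⟩
    have h2 : a * y * a⁻¹ = y := by
      rw [Subgroup.mem_centralizer_iff.1 hy' a ha, mul_inv_cancel_right]
    rw [h2]; exact ⟨hy, hy'⟩
  · rintro h hh y ⟨hy, hy'⟩
    refine ⟨c.hHT h hh y hy, ?_⟩
    show _ ∈ Subgroup.centralizer _
    rw [Subgroup.mem_centralizer_iff]
    intro b hb
    have h3 : h⁻¹ * b * h ∈ F := by
      have := c.hHF h⁻¹ (H.inv_mem hh) b hb
      rwa [inv_inv] at this
    have h4 := Subgroup.mem_centralizer_iff.1 hy' _ h3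
    have h5 : b * (h * y * h⁻¹) = h * ((h⁻¹ * b * h) * y) * h⁻¹ := by group
    rw [h5, h4]; group

/-- The case where `F` fixes all weights in the orbit. -/
theorem caseF (c : Core ρ Q T F H q t) [IsAlgClosed k] [FiniteDimensional k V] [Q.Normal]
    {Z : Subgroup Γ} [Z.Normal] (hZQ : Z ≤ Q)
    (hZ : ∀ y ∈ Q, ∀ z ∈ Z, y * z = z * y) {χ : Z → k} (hχ : wt ρ Z χ ≠ ⊥) (hχ1 : ∃ z, χ z ≠ 1)
    (hF : ∀ g : Γ, ∀ a ∈ F, a • g • χ = g • χ) : False := by
  have hDn : (dsub ρ Q χ).Normal := dsub_normal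
  set D := dsub ρ Q χ with hD
  have hDne : D ≠ Q := dsub_ne hZQ hχ hχ1
  -- `[Q, F] ≤ D`
  have h1 : ∀ y ∈ Q, ∀ a ∈ F, a * y * a⁻¹ * y⁻¹ ∈ D := by
    intro y hy a ha
    refine ⟨Q.mul_mem (Subgroup.Normal.conj_mem inferInstance y hy a) (Q.inv_mem hy), ?_⟩
    intro g w hw
    have h2 : ρ (a⁻¹ * y⁻¹) w ∈ wt ρ Z (g • χ) := by
      rw [map_mul, End.mul_apply]
      apply stab_mem (hF g _ (F.inv_mem ha))
      exact stab_mem (smul_eq_of_centralizer (hZ _ (Q.inv_mem hy)) _) hw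
    have h3 := c.commF hZQ hZ (Sit.smul_nontrivial hχ1 g) (hF g) y hy a ha _ h2
    have h4 : a * y * a⁻¹ * y⁻¹ = a * y * (a⁻¹ * y⁻¹) := by group
    rw [h4, map_mul _ (a * y), End.mul_apply, h3, ← End.mul_apply, ← map_mul]
    have h5 : y * a * (a⁻¹ * y⁻¹) = 1 := by group
    rw [h5, map_one, End.one_apply]
  -- `F` centralises `Q / D`
  have hFN : F ≤ cmod Q D := by
    intro a ha
    rw [mem_cmod]
    intro y hy
    have h2 : y * a * y⁻¹ * a⁻¹ = (a * y * a⁻¹ * y⁻¹)⁻¹ := by group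
    rw [h2]
    exact D.inv_mem (h1 y hy a ha)
  have := cmod_normal Q D
  have hTF : ⁅T, F⁆ ≤ cmod Q D :=
    (Subgroup.commutator_mono le_rfl hFN).trans (Subgroup.commutator_le_right _ _)
  have hCTF : T ⊓ Subgroup.centralizer (F : Set Γ) = T := c.TCF (c.T_dsub hZQ hχ hχ1) hTF
  -- apply the Frobenius formula
  obtain ⟨x, hx, hx1⟩ := exists_ne_one_of_prime H c.hH
  have hDD : D ⊔ ⁅Q, Q⁆ ≤ Q := sup_le dsub_le (Subgroup.commutator_le_left _ _)
  have hD₁n : (D ⊔ ⁅Q, Q⁆ : Subgroup Γ).Normal := inferInstance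
  set D₁ := D ⊔ ⁅Q, Q⁆ with hD₁
  have hxgen : ∀ h ∈ H, ∃ n : ℕ, x ^ n = h := by
    intro h hh
    have hbz := mem_zpowers_of_prime H c.hH hx hx1 hh
    rw [← mem_powers_iff_mem_zpowers] at hbz
    exact hbz
  let C : Subgroup Γ := D₁
  have h2 := Cfsg.Agent.H851.PQ.P2 T Q D₁ D₁ x c.hH (pow_card_eq_one_of_mem H hx)
    (c.hHT x hx) (fun y hy => Subgroup.Normal.conj_mem inferInstance y hy x)
    (fun y hy => Subgroup.Normal.conj_mem hD₁n y hy x)
    (fun t _ y hy => Subgroup.Normal.conj_mem inferInstance y hy t)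
    (fun t _ y hy => Subgroup.Normal.conj_mem hD₁n y hy t) hDD
    (fun t _ y hy => Subgroup.Normal.conj_mem hD₁n y hy t)
    (fun y hy z hz => (le_sup_right : ⁅Q, Q⁆ ≤ D₁) (Subgroup.commutator_mem_commutator hy hz))
    c.hcopTQ (not_dvd_card c.hq c.hH c.hqe c.hQ le_rfl) (not_dvd_card c.ht c.hH c.hte c.hT le_rfl)
    (by
      intro y hy hxy
      apply c.hCT y hy
      · intro a ha
        rw [← hCTF] at hy
        exact Subgroup.mem_centralizer_iff.1 hy.2 a ha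
      · intro a ha
        obtain ⟨n, rfl⟩ := hxgen a ha
        have : Commute x y := hxy
        exact (this.pow_left n))
    (c.CT' (le_sup_right) hDD (fun x _ y hy => Subgroup.Normal.conj_mem hD₁n y hy x))
    (by
      intro y
      constructor
      · intro hy
        refine ⟨hDD hy, ?_⟩
        exact D₁.mul_mem (D₁.inv_mem hy) (Subgroup.Normal.conj_mem hD₁n y hy x)
      · rintro ⟨hy, hxy⟩
        apply c.fixA hDD (fun a _ y hy => Subgroup.Normal.conj_mem hD₁n y hy a)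
          (fun a _ y hy => Subgroup.Normal.conj_mem hD₁n y hy a)
          (fun a _ y hy => Subgroup.Normal.conj_mem hD₁n y hy a) hy
        · intro a ha
          exact (le_sup_left : D ≤ D₁) (h1 y hy a ha)
        · intro a ha
          obtain ⟨n, rfl⟩ := hxgen a ha
          have h3 : Commute (QuotientGroup.mk' D₁ x) (QuotientGroup.mk' D₁ y) := by
            have h4 : (QuotientGroup.mk' D₁) (y⁻¹ * (x * y * x⁻¹)) = 1 := (QuotientGroup.eq_one_iff _).2 hxy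
            have h5 : x * y = y * (y⁻¹ * (x * y * x⁻¹)) * x := by group
            show _ * _ = _ * _
            rw [← map_mul, ← map_mul, h5, map_mul, map_mul, h4, mul_one, ← map_mul]
          have h6 := h3.pow_left n
          rw [← QuotientGroup.eq_one_iff]
          show (QuotientGroup.mk' D₁) (x ^ n * y * (x ^ n)⁻¹ * y⁻¹) = 1
          rw [map_mul, map_mul, map_mul, map_pow, h6.eq, map_inv, map_inv, map_pow, mul_inv_cancel_right,
            mul_inv_cancel])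
  rw [Subgroup.relIndex_self, one_pow, Subgroup.relIndex_eq_one] at h2
  exact c.sup_ne dsub_le hDne (le_antisymm hDD h2)

omit [Finite Γ] in
/-- an element of `T` commuting with `H` is trivial if `F` centralises `T` -/
theorem CTH (c : Core ρ Q T F H q t) (hCTF : T ⊓ Subgroup.centralizer (F : Set Γ) = T) {y : Γ} (hy : y ∈ T)
    (h : ∀ a ∈ H, a * y = y * a) : y = 1 := by
  apply c.hCT y hy _ h
  intro a ha
  rw [← hCTF] at hy
  exact Subgroup.mem_centralizer_iff.1 hy.2 a ha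

/-- in case (H) the fixed points of `F` are in `D` -/
theorem CQF (c : Core ρ Q T F H q t) [FiniteDimensional k V] [Q.Normal]
    {Z : Subgroup Γ} [Z.Normal] (hZQ : Z ≤ Q)
    (hZ : ∀ y ∈ Q, ∀ z ∈ Z, y * z = z * y) {χ : Z → k} (hχ : wt ρ Z χ ≠ ⊥) (hχ1 : ∃ z, χ z ≠ 1)
    (hF : ∀ g : Γ, ∃ a ∈ F, a • g • χ ≠ g • χ) (hH : ∀ h ∈ H, h • χ = χ) :
    Q ⊓ Subgroup.centralizer (F : Set Γ) ≤ dsub ρ Q χ := by
  have s := c.sit inferInstance hZQ (fun a ha b hb => hZ a (hZQ ha) b hb)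
  obtain ⟨x, hx, hx1⟩ := exists_ne_one_of_prime H c.hH
  have hxgen : ∀ h ∈ H, ∃ n : ℕ, x ^ n = h := by
    intro h hh
    have hbz := mem_zpowers_of_prime H c.hH hx hx1 hh
    rw [← mem_powers_iff_mem_zpowers] at hbz
    exact hbz
  have key : ∀ u ∈ T, ∀ y ∈ Q ⊓ Subgroup.centralizer (F : Set Γ), ∀ w ∈ wt ρ Z (u • χ), ρ y w = w := by
    intro u hu
    have hHu := s.hc hχ hχ1 hF hH hu
    apply Cfsg.Agent.H851.PQ.P3 ρ (Q ⊓ Subgroup.centralizer (F : Set Γ)) x c.hH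
      (pow_card_eq_one_of_mem H hx)
    · rintro y ⟨hy, hy'⟩
      refine ⟨Subgroup.Normal.conj_mem inferInstance y hy x, ?_⟩
      show _ ∈ Subgroup.centralizer _
      rw [Subgroup.mem_centralizer_iff]
      intro b hb
      have h3 : x⁻¹ * b * x ∈ F := by
        have := c.hHF x⁻¹ (H.inv_mem hx) b hb
        rwa [inv_inv] at this
      have h4 := Subgroup.mem_centralizer_iff.1 hy' _ h3
      have h5 : b * (x * y * x⁻¹) = x * ((x⁻¹ * b * x) * y) * x⁻¹ := by group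
      rw [h5, h4]; group
    · exact cast_ne_zero c.hq c.hqk c.hQ inf_le_left
    · rintro y ⟨hy, hy'⟩ hxy
      apply c.hCQ y hy
      · intro a ha
        exact Subgroup.mem_centralizer_iff.1 hy' a ha
      · intro a ha
        obtain ⟨n, rfl⟩ := hxgen a ha
        have : Commute x y := hxy
        exact (this.pow_left n)
    · intro y hy w hw
      exact stab_mem (smul_eq_of_centralizer (hZ y hy.1) _) hw
    · intro w hw
      exact stab_mem (hHu x hx) hw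
    · intro w hw hxw
      apply s.fixH (hF u) hw
      intro a ha
      obtain ⟨n, rfl⟩ := hxgen a ha
      have h6 : ∀ n : ℕ, ρ (x ^ n) w = w := by
        intro n
        induction n with
        | zero => rw [pow_zero, map_one, End.one_apply]
        | succ n ih => rw [pow_succ, map_mul, End.mul_apply, hxw, ih]
      exact h6 n
  rintro y ⟨hy, hy'⟩
  refine ⟨hy, ?_⟩
  intro g w hw
  obtain ⟨a, ha, u, hu, h, hh, hg⟩ := c.hdec hZ g
  rw [hg χ, hH h hh] at hw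
  have h1 := smul_mem_wt hw a⁻¹
  rw [inv_smul_smul] at h1
  have h2 := key u hu y ⟨hy, hy'⟩ _ h1
  have h3 := Subgroup.mem_centralizer_iff.1 hy' _ (F.inv_mem ha)
  rw [← End.mul_apply, ← map_mul, ← h3, map_mul, End.mul_apply] at h2
  have h4 := congrArg (ρ a) h2
  have h5 : ∀ v, ρ a (ρ a⁻¹ v) = v := by
    intro v
    rw [← End.mul_apply, ← map_mul, mul_inv_cancel, map_one, End.one_apply]
  rw [h5, h5] at h4
  exact h4

/-- in case (H), `F` centralises `T` -/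
theorem TCF_H (c : Core ρ Q T F H q t) [FiniteDimensional k V] [Q.Normal]
    {Z : Subgroup Γ} [Z.Normal] (hZQ : Z ≤ Q)
    (hZ : ∀ y ∈ Q, ∀ z ∈ Z, y * z = z * y) {χ : Z → k} (hχ : wt ρ Z χ ≠ ⊥) (hχ1 : ∃ z, χ z ≠ 1)
    (hF : ∀ g : Γ, ∃ a ∈ F, a • g • χ ≠ g • χ) (hH : ∀ h ∈ H, h • χ = χ) :
    T ⊓ Subgroup.centralizer (F : Set Γ) = T := by
  have hDn : (dsub ρ Q χ).Normal := dsub_normal
  have hCQF := c.CQF hZQ hZ hχ hχ1 hF hH
  have hTD := c.T_dsub hZQ hχ hχ1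
  have hDne : dsub ρ Q χ ≠ Q := dsub_ne hZQ hχ hχ1
  have hDQ : dsub ρ Q χ ≤ Q := dsub_le
  set D := dsub ρ Q χ with hD
  have hcopFQ : (Nat.card F).Coprime (Nat.card Q) :=
    (Nat.Prime.coprime_iff_not_dvd c.hF).2 (not_dvd_card c.hq c.hF c.hqf c.hQ le_rfl)
  have hcopFT : (Nat.card F).Coprime (Nat.card T) :=
    (Nat.Prime.coprime_iff_not_dvd c.hF).2 (not_dvd_card c.ht c.hF c.htf c.hT le_rfl)
  -- fixed points of `F` modulo `D`
  have hfix : ∀ y ∈ Q, (∀ a ∈ F, a * y * a⁻¹ * y⁻¹ ∈ D) → y ∈ D := by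
    intro y hy h
    obtain ⟨z, hz, hyz⟩ := Cfsg.Agent.S0022.result F Q (le_top.trans_eq Q.normalizer_eq_top.symm)
      hcopFQ (Or.inr (solvable_of_le c.hq c.hQ le_rfl)) D hDQ
      (le_top.trans_eq D.normalizer_eq_top.symm) (le_top.trans_eq D.normalizer_eq_top.symm) y hy h
    have h3 : y = z * (y⁻¹ * z)⁻¹ := by group
    rw [h3]
    exact D.mul_mem (hCQF hz) (D.inv_mem hyz)
  set φ := QuotientGroup.mk' D with hφ
  have hcardF : Nat.card (F.map φ) = Nat.card F := by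
    have hdiv : Nat.card (F.map φ) ∣ Nat.card F := Subgroup.card_map_dvd _ φ
    rcases (Nat.dvd_prime c.hF).1 hdiv with h | h
    · exfalso
      rw [Subgroup.card_eq_one, Subgroup.map_eq_bot_iff, hφ, QuotientGroup.ker_mk'] at h
      have h1 := (Subgroup.card_dvd_of_le (h.trans hDQ))
      exact not_dvd_card c.hq c.hF c.hqf c.hQ le_rfl h1
    · exact h
  have hQs := solvable_of_le c.hq c.hQ (le_refl Q)
  have hTs := solvable_of_le c.ht c.hT (le_refl T)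
  have hQφs : Group.IsSolvable (Q.map φ) :=
    Group.isSolvable_of_surjective (f := φ.subgroupMap Q) (φ.subgroupMap_surjective Q)
  have hTφs : Group.IsSolvable (T.map φ) :=
    Group.isSolvable_of_surjective (f := φ.subgroupMap T) (φ.subgroupMap_surjective T)
  have hQφn : (Q.map φ).Normal := Subgroup.Normal.map inferInstance φ (QuotientGroup.mk'_surjective _)
  have hcT : Nat.card (T.map φ) ∣ Nat.card T := Subgroup.card_map_dvd _ φ
  have hcQ : Nat.card (Q.map φ) ∣ Nat.card Q := Subgroup.card_map_dvd _ φ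
  have hkey := Cfsg.Agent.SignalizersComponents.NoFixedGen.commutator_le_centralizer_of_fixedFree
    (T.map φ) (F.map φ) (Q.map φ) hTφs
    (by
      rw [hcardF]
      intro h
      exact not_dvd_card c.ht c.hH c.hte c.hT le_rfl
        ((c.hef.trans (dvd_pow_self _ two_ne_zero)).trans (h.trans hcT)))
    (by rw [hcardF]; exact c.hF) (by rw [hcardF]; exact c.card_F_ne_two)
    ((Subgroup.map_mono c.hFnT).trans (Subgroup.le_normalizer_map φ))
    (by rw [hcardF]; exact (Nat.Coprime.coprime_dvd_left hcT hcopFT.symm))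
    (le_top.trans_eq (Q.map φ).normalizer_eq_top.symm) (le_top.trans_eq (Q.map φ).normalizer_eq_top.symm)
    hQφs (Nat.Coprime.coprime_dvd_left hcQ (Nat.Coprime.coprime_dvd_right hcT c.hcopTQ.symm))
    (by rw [hcardF]; exact (Nat.Coprime.coprime_dvd_left hcQ hcopFQ.symm))
    (by
      rw [eq_bot_iff]
      rintro _ ⟨⟨y, hy, rfl⟩, h⟩
      rw [Subgroup.mem_bot, hφ, QuotientGroup.mk'_apply, QuotientGroup.eq_one_iff]
      apply hfix y hy
      intro a ha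
      have h2 := Subgroup.mem_centralizer_iff.1 h _ ⟨a, ha, rfl⟩
      rw [← QuotientGroup.eq_one_iff]
      show φ (a * y * a⁻¹ * y⁻¹) = 1
      rw [map_mul, map_mul, map_mul, h2, map_inv, map_inv, mul_inv_cancel_right, mul_inv_cancel])
  apply c.TCF hTD
  intro g hg
  show φ g ∈ Subgroup.centralizer _
  apply hkey
  rw [← Subgroup.map_commutator]
  exact ⟨g, hg, rfl⟩

/-- The case (H), `Q` commutative. -/
theorem caseH_comm (c : Core ρ Q T F H q t) [FiniteDimensional k V] [Q.Normal]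
    (hQc : ∀ a ∈ Q, ∀ b ∈ Q, a * b = b * a) {χ : Q → k} (hχ : wt ρ Q χ ≠ ⊥) (hχ1 : ∃ z, χ z ≠ 1)
    (hF : ∀ g : Γ, ∃ a ∈ F, a • g • χ ≠ g • χ) (hH : ∀ h ∈ H, h • χ = χ) : False := by
  have s := c.sit inferInstance le_rfl hQc
  have hCTF := c.TCF_H le_rfl hQc hχ hχ1 hF hH
  have hcopHT : (Nat.card H).Coprime (Nat.card T) :=
    (Nat.Prime.coprime_iff_not_dvd c.hH).2 (not_dvd_card c.ht c.hH c.hte c.hT le_rfl)
  have hTs := solvable_of_le c.ht c.hT (le_refl T)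
  have hTsplit := Cfsg.Agent.S0026.result H T c.hHnT hcopHT (Or.inr hTs)
  have hCTH : T ⊓ Subgroup.centralizer (H : Set Γ) = ⊥ := by
    rw [eq_bot_iff]
    rintro y ⟨hy, hy'⟩
    rw [Subgroup.mem_bot]
    exact c.CTH hCTF hy (fun a ha => Subgroup.mem_centralizer_iff.1 hy' a ha)
  rw [hCTH, sup_bot_eq] at hTsplit
  have hstab : T ≤ MulAction.stabilizer Γ χ := by
    rw [← hTsplit, Subgroup.commutator_le]
    intro x hx h hh
    rw [commutatorElement_def, MulAction.mem_stabilizer_iff]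
    have h1 := s.hc hχ hχ1 hF hH (T.inv_mem hx) h hh
    have h2 : h⁻¹ • χ = χ := hH _ (H.inv_mem hh)
    rw [mul_smul, mul_smul, mul_smul, h2, h1, smul_inv_smul]
  have hQ2 : ∀ y ∈ ⁅Q, T⁆, ∀ w ∈ wt ρ Q χ, ρ y w = w := by
    let K : Subgroup Γ :=
      { carrier := {g | ∀ w ∈ wt ρ Q χ, ρ g w = w}
        mul_mem' := by
          intro a b ha hb w hw
          rw [map_mul, End.mul_apply, hb w hw, ha w hw]
        one_mem' := by
          intro w _
          rw [map_one, End.one_apply]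
        inv_mem' := by
          intro a ha w hw
          conv_lhs => rw [← ha w hw]
          rw [← End.mul_apply, ← map_mul, inv_mul_cancel, map_one, End.one_apply] }
    have hK : ⁅Q, T⁆ ≤ K := by
      rw [Subgroup.commutator_le]
      intro z hz a ha w hw
      have haψ : a • χ = χ := hstab ha
      have hz' : z⁻¹ ∈ Q := inv_mem hz
      rw [commutatorElement_def]
      have h3 : ρ (a * z⁻¹ * a⁻¹) w = ρ z⁻¹ w := by
        rw [mem_wt] at hw
        have h4 := hw (MulAut.conjNormal a ⟨z⁻¹, hz'⟩)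
        have h5 := hw ⟨z⁻¹, hz'⟩
        rw [MulAut.conjNormal_apply] at h4
        rw [h4, h5]
        congr 1
        have h6 := congrFun haψ (MulAut.conjNormal a ⟨z⁻¹, hz'⟩)
        rw [wt_smul_def, ← MulAut.mul_apply, ← map_mul, inv_mul_cancel, map_one] at h6
        exact h6.symm
      have h7 : z * a * z⁻¹ * a⁻¹ = z * (a * z⁻¹ * a⁻¹) := by group
      rw [h7, map_mul, End.mul_apply, h3, ← End.mul_apply, ← map_mul, mul_inv_cancel, map_one,
        End.one_apply]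
    exact fun y hy => hK hy
  rw [c.hQT] at hQ2
  obtain ⟨z, hz⟩ := hχ1
  obtain ⟨v, hv, hv0⟩ := Submodule.exists_mem_ne_zero_of_ne_bot hχ
  have h8 := hQ2 z z.2 v hv
  rw [mem_wt.1 hv z] at h8
  have h9 : (χ z - 1) • v = 0 := by rw [sub_smul, one_smul, h8, sub_self]
  rcases smul_eq_zero.1 h9 with h | h
  · exact hz (sub_eq_zero.1 h)
  · exact hv0 h

theorem arith {e n d : ℕ} (he : e.Prime) (h1 : n ^ e = d ^ 2) (h2 : d ^ 2 ≤ (e - 1) ^ 2 * n)
    (hn : n ^ e ≠ 1) (hn0 : n ≠ 0) : False := by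
  have hn1 : n ≠ 1 := by
    rintro rfl
    exact hn (one_pow e)
  have hn2 : 2 ≤ n := by omega
  rcases he.eq_two_or_odd' with rfl | hodd
  · rw [← h1] at h2
    norm_num at h2
    nlinarith
  · -- `n` is a square
    obtain ⟨j, hj⟩ := hodd
    have h3 : (n ^ j) ^ 2 * n = d ^ 2 := by
      rw [← h1, hj]; ring
    have h4 : n ^ j ∣ d := by
      rw [← Nat.pow_dvd_pow_iff two_ne_zero, ← h3]
      exact dvd_mul_right _ _
    obtain ⟨m, rfl⟩ := h4
    have h5 : n = m ^ 2 := by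
      have h6 : 0 < (n ^ j) ^ 2 := by positivity
      rw [mul_pow] at h3
      exact Nat.eq_of_mul_eq_mul_left h6 h3
    subst h5
    have hm : 2 ≤ m := by
      by_contra hcon
      have : m = 0 ∨ m = 1 := by omega
      rcases this with rfl | rfl
      · simp at hn0
      · simp at hn1
    rw [← h1] at h2
    have h6 : (m ^ e) ^ 2 ≤ ((e - 1) * m) ^ 2 := by
      calc (m ^ e) ^ 2 = (m ^ 2) ^ e := by rw [← pow_mul, ← pow_mul, mul_comm]
        _ ≤ (e - 1) ^ 2 * m ^ 2 := h2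
        _ = _ := by rw [mul_pow]
    have h7 : m ^ e ≤ (e - 1) * m := by
      exact (Nat.pow_le_pow_iff_left two_ne_zero).1 h6
    have h8 : m ^ e = m ^ (e - 1) * m := by
      rw [← pow_succ]; congr 1; have := he.one_lt; omega
    rw [h8] at h7
    have h9 : m ^ (e - 1) ≤ e - 1 := Nat.le_of_mul_le_mul_right h7 (by omega)
    have h10 : e - 1 < 2 ^ (e - 1) := Nat.lt_two_pow_self
    have h11 : 2 ^ (e - 1) ≤ m ^ (e - 1) := Nat.pow_le_pow_left hm _
    omega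

/-- The case (H), `Q` not commutative. -/
theorem caseH_noncomm (c : Core ρ Q T F H q t) [IsAlgClosed k] [FiniteDimensional k V] [Q.Normal]
    {Z : Subgroup Γ} [Z.Normal] (hZQ : Z ≤ Q)
    (hZ : ∀ y ∈ Q, ∀ z ∈ Z, y * z = z * y) (hZne : Z ≠ Q) (hQQ : ⁅Q, Q⁆ ≤ Z)
    {χ : Z → k} (hχ : wt ρ Z χ ≠ ⊥) (hχ1 : ∃ z : Z, (z : Γ) ∈ ⁅Q, Q⁆ ∧ χ z ≠ 1)
    (hF : ∀ g : Γ, ∃ a ∈ F, a • g • χ ≠ g • χ) (hH : ∀ h ∈ H, h • χ = χ) : False := by
  have s := c.sit inferInstance hZQ (fun a ha b hb => hZ a (hZQ ha) b hb)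
  have hχ1' : ∃ z, χ z ≠ 1 := by
    obtain ⟨z, _, hz⟩ := hχ1
    exact ⟨z, hz⟩
  have hCTF := c.TCF_H hZQ hZ hχ hχ1' hF hH
  have hTZ : T ≤ Subgroup.centralizer (Z : Set Γ) := c.hminQ Z hZQ hZne inferInstance
  have hTχ : ∀ x ∈ T, x • χ = χ := by
    intro x hx
    apply smul_eq_of_centralizer
    intro z hz
    exact (Subgroup.mem_centralizer_iff.1 (hTZ hx) z hz).symm
  have hQχ : ∀ x ∈ Q, x • χ = χ := fun x hx => smul_eq_of_centralizer (hZ x hx) χ
  obtain ⟨x, hx, hx1⟩ := exists_ne_one_of_prime H c.hH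
  have hxgen : ∀ h ∈ H, ∃ n : ℕ, x ^ n = h := by
    intro h hh
    have hbz := mem_zpowers_of_prime H c.hH hx hx1 hh
    rw [← mem_powers_iff_mem_zpowers] at hbz
    exact hbz
  have hcommZ : ∀ y ∈ Q, ∀ z ∈ Q, y * z * y⁻¹ * z⁻¹ ∈ Z := fun y hy z hz =>
    hQQ (Subgroup.commutator_mem_commutator hy hz)
  let W := wt ρ Z χ
  have hQn : ∀ g : Γ, ∀ y ∈ Q, g * y * g⁻¹ ∈ Q := fun g y hy => Subgroup.Normal.conj_mem inferInstance y hy g
  let R : Subgroup Γ :=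
    { carrier := {y | y ∈ Q ∧ ∀ z ∈ Q, ∀ w ∈ W, ρ (y * z * y⁻¹ * z⁻¹) w = w}
      mul_mem' := by
        rintro a b ⟨ha, ha'⟩ ⟨hb, hb'⟩
        refine ⟨Q.mul_mem ha hb, fun z hz w hw => ?_⟩
        have h1 : a * b * z * (a * b)⁻¹ * z⁻¹ = (b * z * b⁻¹ * z⁻¹) * (a * z * a⁻¹ * z⁻¹) := by
          have h2 := hZ a ha _ (hcommZ b hb z hz)
          have h3 : a * b * z * (a * b)⁻¹ * z⁻¹ = (a * (b * z * b⁻¹ * z⁻¹)) * (z * a⁻¹ * z⁻¹) := by group
          rw [h3, h2]; group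
        rw [h1, map_mul, End.mul_apply, ha' z hz w hw, hb' z hz w hw]
      one_mem' := ⟨Q.one_mem, fun z _ w _ => by
        have : (1 : Γ) * z * 1⁻¹ * z⁻¹ = 1 := by group
        rw [this, map_one, End.one_apply]⟩
      inv_mem' := by
        rintro a ⟨ha, ha'⟩
        refine ⟨Q.inv_mem ha, fun z hz w hw => ?_⟩
        have h1 : a⁻¹ * z * a⁻¹⁻¹ * z⁻¹ = (a * z * a⁻¹ * z⁻¹)⁻¹ := by
          have h2 := hZ (a⁻¹) (Q.inv_mem ha) _ (hcommZ z hz a ha)
          have h3 : a⁻¹ * z * a⁻¹⁻¹ * z⁻¹ = a⁻¹ * (z * a * z⁻¹ * a⁻¹) * a := by group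
          rw [h3, h2]; group
        rw [h1]
        conv_lhs => rw [← ha' z hz w hw]
        rw [← End.mul_apply, ← map_mul, inv_mul_cancel, map_one, End.one_apply] }
  have hRQ : R ≤ Q := fun y hy => hy.1
  have hRconj : ∀ g : Γ, g • χ = χ → ∀ y ∈ R, g * y * g⁻¹ ∈ R := by
    rintro g hg y ⟨hy, hy'⟩
    refine ⟨hQn g y hy, ?_⟩
    intro z hz w hw
    have hz' : g⁻¹ * z * g ∈ Q := by
      have := hQn g⁻¹ z hz
      rwa [inv_inv] at this
    have hg' : g⁻¹ • χ = χ := by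
      conv_lhs => rw [← hg]
      rw [inv_smul_smul]
    have hw' : ρ g⁻¹ w ∈ W := stab_mem hg' hw
    have h1 : g * y * g⁻¹ * z * (g * y * g⁻¹)⁻¹ * z⁻¹ =
        g * ((y * (g⁻¹ * z * g) * y⁻¹ * (g⁻¹ * z * g)⁻¹) * g⁻¹) := by group
    rw [h1, map_mul, map_mul, End.mul_apply, End.mul_apply, hy' _ hz' _ hw', ← End.mul_apply, ← map_mul,
      mul_inv_cancel, map_one, End.one_apply]
  have hZR : Z ≤ R := by
    intro y hy
    refine ⟨hZQ hy, ?_⟩
    intro z hz w _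
    have h1 : y * z * y⁻¹ * z⁻¹ = 1 := by
      rw [← hZ z hz y hy]; group
    rw [h1, map_one, End.one_apply]
  have hRQn : Q ≤ Subgroup.normalizer (R : Set Γ) :=
    le_normalizer_of_conj (fun a ha => hRconj a (hQχ a ha))
  let C : Subgroup Γ :=
    { carrier := {y | y ∈ Q ∧ y⁻¹ * (x * y * x⁻¹) ∈ R}
      mul_mem' := by
        rintro a b ⟨ha, ha'⟩ ⟨hb, hb'⟩
        refine ⟨Q.mul_mem ha hb, ?_⟩
        have h1 : (a * b)⁻¹ * (x * (a * b) * x⁻¹) =
            b⁻¹ * (a⁻¹ * (x * a * x⁻¹)) * b⁻¹⁻¹ * (b⁻¹ * (x * b * x⁻¹)) := by group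
        rw [h1]
        exact R.mul_mem (hRconj _ (hQχ _ (Q.inv_mem hb)) _ ha') hb'
      one_mem' := ⟨Q.one_mem, by
        have : (1 : Γ)⁻¹ * (x * 1 * x⁻¹) = 1 := by group
        rw [this]; exact R.one_mem⟩
      inv_mem' := by
        rintro a ⟨ha, ha'⟩
        refine ⟨Q.inv_mem ha, ?_⟩
        have h1 : a⁻¹⁻¹ * (x * a⁻¹ * x⁻¹) = a * (a⁻¹ * (x * a * x⁻¹))⁻¹ * a⁻¹ := by group
        rw [h1]
        exact hRconj _ (hQχ _ ha) _ (R.inv_mem ha') }
  have hCdef : ∀ y, y ∈ C ↔ y ∈ Q ∧ y⁻¹ * (x * y * x⁻¹) ∈ R := fun y => Iff.rfl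
  have hxn : x ^ Nat.card H = 1 := pow_card_eq_one_of_mem H hx
  have hP1 := Cfsg.Agent.H851.PQ.P1 ρ Q R C x c.hH hxn (hQn x) c.hek
    (cast_ne_zero c.hq c.hqk c.hQ le_rfl) (not_dvd_card c.hq c.hH c.hqe c.hQ le_rfl) W hχ
    (fun y hy w hw => stab_mem (hQχ y hy) hw) (fun w hw => stab_mem (hH x hx) hw)
    (fun y hy z hz => ⟨χ ⟨_, hcommZ y hy z hz⟩, fun w hw => mem_wt.1 hw ⟨_, hcommZ y hy z hz⟩⟩)
    (fun y => Iff.rfl) hCdef
    (by
      intro w hw hxw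
      apply s.fixH (by have := hF 1; simpa only [one_smul] using this) hw
      intro a ha
      obtain ⟨n, rfl⟩ := hxgen a ha
      have h6 : ∀ n : ℕ, ρ (x ^ n) w = w := by
        intro n
        induction n with
        | zero => rw [pow_zero, map_one, End.one_apply]
        | succ n ih => rw [pow_succ, map_mul, End.mul_apply, hxw, ih]
      exact h6 n)
  have hP2 := Cfsg.Agent.H851.PQ.P2 T Q R C x c.hH hxn (c.hHT x hx) (hQn x)
    (hRconj x (hH x hx)) (fun t _ => hQn t) (fun t ht => hRconj t (hTχ t ht)) hRQ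
    (fun t ht => hRconj t (hQχ t ht)) (fun y hy z hz => hZR (hcommZ y hy z hz))
    c.hcopTQ (not_dvd_card c.hq c.hH c.hqe c.hQ le_rfl) (not_dvd_card c.ht c.hH c.hte c.hT le_rfl)
    (by
      intro y hy hxy
      apply c.CTH hCTF hy
      intro a ha
      obtain ⟨n, rfl⟩ := hxgen a ha
      have : Commute x y := hxy
      exact (this.pow_left n))
    (c.CT' (hQQ.trans hZR) hRQ (fun t ht => hRconj t (hTχ t ht))) hCdef
  obtain ⟨d, hd1, hd2⟩ := hP1
  apply arith (e := Nat.card H) (n := R.relIndex C) (d := d) c.hH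
  · rw [← hP2, hd1]
  · exact hd2
  · rw [← hP2, Ne, Subgroup.relIndex_eq_one]
    intro hQR
    obtain ⟨z, hzQ, hz⟩ := hχ1
    have hK : ∀ g ∈ ⁅Q, Q⁆, ∀ w ∈ W, ρ g w = w := by
      let K : Subgroup Γ :=
        { carrier := {g | ∀ w ∈ W, ρ g w = w}
          mul_mem' := by
            intro a b ha hb w hw
            rw [map_mul, End.mul_apply, hb w hw, ha w hw]
          one_mem' := by
            intro w _
            rw [map_one, End.one_apply]
          inv_mem' := by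
            intro a ha w hw
            conv_lhs => rw [← ha w hw]
            rw [← End.mul_apply, ← map_mul, inv_mul_cancel, map_one, End.one_apply] }
      have hK : ⁅Q, Q⁆ ≤ K := by
        rw [Subgroup.commutator_le]
        intro y hy z hz w hw
        exact (hQR hy).2 z hz w hw
      exact fun g hg => hK hg
    obtain ⟨v, hv, hv0⟩ := Submodule.exists_mem_ne_zero_of_ne_bot hχ
    have h8 := hK z hzQ v hv
    rw [mem_wt.1 hv z] at h8
    have h9 : (χ z - 1) • v = 0 := by rw [sub_smul, one_smul, h8, sub_self]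
    rcases smul_eq_zero.1 h9 with h | h
    · exact hz (sub_eq_zero.1 h)
    · exact hv0 h
  · exact Subgroup.index_ne_zero_of_finite (H := R.subgroupOf C)

/-- a weight not trivial on a given element -/
theorem exists_weight (c : Core ρ Q T F H q t) [IsAlgClosed k] [FiniteDimensional k V]
    {Z : Subgroup Γ} (hZQ : Z ≤ Q) (hZ : ∀ a ∈ Z, ∀ b ∈ Z, a * b = b * a) (z : Z) (hz : (z : Γ) ≠ 1) :
    ∃ χ : Z → k, wt ρ Z χ ≠ ⊥ ∧ χ z ≠ 1 := by
  by_contra hcon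
  push Not at hcon
  apply hz
  apply c.hfaith z (hZQ z.2)
  intro v
  have h1 : (⊤ : Submodule k V) ≤ End.eigenspace (ρ z) 1 := by
    rw [← iSup_wt ρ Z (cast_ne_zero c.hq c.hqk c.hQ hZQ) hZ]
    apply iSup_le
    intro χ
    by_cases h : wt ρ Z χ = ⊥
    · rw [h]; exact bot_le
    · intro w hw
      rw [End.mem_eigenspace_iff, ← hcon χ h]
      exact mem_wt.1 hw z
  have h2 := h1 (Submodule.mem_top : v ∈ ⊤)
  rw [End.mem_eigenspace_iff, one_smul] at h2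
  exact h2

theorem false_of_core [IsAlgClosed k] [FiniteDimensional k V] [Q.Normal] (c : Core ρ Q T F H q t) : False := by
  -- it suffices to treat a suitable commutative normal subgroup and element
  have main : ∀ (Z : Subgroup Γ) (_ : Z.Normal) (hZQ : Z ≤ Q) (hZ : ∀ y ∈ Q, ∀ z ∈ Z, y * z = z * y)
      (z : Z) (hz : (z : Γ) ≠ 1) (hfin : ∀ g : Γ, ∀ χ : Z → k, wt ρ Z χ ≠ ⊥ → χ z ≠ 1 →
        (∀ g' : Γ, ∃ a ∈ F, a • g' • g • χ ≠ g' • g • χ) →
        (∀ h ∈ H, h • g • χ = g • χ) → False), False := by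
    intro Z hZn hZQ hZ z hz hfin
    have hZc : ∀ a ∈ Z, ∀ b ∈ Z, a * b = b * a := fun a ha b hb => hZ a (hZQ ha) b hb
    have s := c.sit hZn hZQ hZc
    obtain ⟨χ, hχ, hχz⟩ := c.exists_weight hZQ hZc z hz
    by_cases hcase : ∃ g : Γ, ∀ a ∈ F, a • g • χ = g • χ
    · obtain ⟨g, hg⟩ := hcase
      apply c.caseF hZQ hZ hχ ⟨z, hχz⟩
      intro g'
      have h1 := s.di (c.hdec hZ) (Sit.smul_ne_bot hχ g) (Sit.smul_nontrivial ⟨z, hχz⟩ g) hg (g' * g⁻¹)
      rwa [mul_smul, inv_smul_smul] at h1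
    · push Not at hcase
      obtain ⟨a, ha, hfix⟩ := s.exists_fixH hχ (by simpa only [one_smul] using hcase 1)
      apply hfin a χ hχ hχz _ hfix
      intro g'
      have := hcase (g' * a)
      simpa only [mul_smul] using this
  by_cases hQc : ∀ a ∈ Q, ∀ b ∈ Q, a * b = b * a
  · obtain ⟨z, hz, hz1⟩ := (Subgroup.bot_or_exists_ne_one Q).resolve_left c.hQ1
    apply main Q inferInstance le_rfl hQc ⟨z, hz⟩ hz1
    intro g χ hχ hχz h1 h2
    exact c.caseH_comm hQc (Sit.smul_ne_bot hχ g) (Sit.smul_nontrivial ⟨_, hχz⟩ g) h1 h2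
  · have hQQ1 : ⁅Q, Q⁆ ≠ ⊥ := by
      intro h
      apply hQc
      rw [Subgroup.commutator_eq_bot_iff_le_centralizer] at h
      intro a ha b hb
      exact Subgroup.mem_centralizer_iff.1 (h hb) a ha
    have hQs := solvable_of_le c.hq c.hQ (le_refl Q)
    have hQQne : ⁅Q, Q⁆ ≠ Q := commutator_ne Q c.hQ1
    have hQQle : ⁅Q, Q⁆ ≤ Q := Subgroup.commutator_le_left _ _
    -- `⁅Q, Q⁆` is central in `Q`
    have hTQQ : T ≤ Subgroup.centralizer ((⁅Q, Q⁆ : Subgroup Γ) : Set Γ) :=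
      c.hminQ _ hQQle hQQne inferInstance
    have hQQQ : Q ≤ Subgroup.centralizer ((⁅Q, Q⁆ : Subgroup Γ) : Set Γ) := by
      have h1 : ⁅Q, T⁆ ≤ Subgroup.centralizer ((⁅Q, Q⁆ : Subgroup Γ) : Set Γ) :=
        (Subgroup.commutator_mono le_rfl hTQQ).trans (Subgroup.commutator_le_right _ _)
      rwa [c.hQT] at h1
    let Z := Q ⊓ Subgroup.centralizer (Q : Set Γ)
    have hZn : Z.Normal := inferInstance
    have hZQ : Z ≤ Q := inf_le_left
    have hZ : ∀ y ∈ Q, ∀ z ∈ Z, y * z = z * y := by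
      intro y hy z hz
      exact Subgroup.mem_centralizer_iff.1 hz.2 y hy
    have hZne : Z ≠ Q := by
      intro h
      apply hQc
      intro a ha b hb
      rw [← h] at hb
      exact hZ a ha b hb
    have hQQZ : ⁅Q, Q⁆ ≤ Z := by
      apply le_inf hQQle
      rw [Subgroup.le_centralizer_iff]
      exact hQQQ
    obtain ⟨z, hz, hz1⟩ := (Subgroup.bot_or_exists_ne_one ⁅Q, Q⁆).resolve_left hQQ1
    apply main Z hZn hZQ hZ ⟨z, hQQZ hz⟩ hz1
    intro g χ hχ hχz h1 h2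
    apply c.caseH_noncomm hZQ hZ hZne hQQZ (Sit.smul_ne_bot hχ g) _ h1 h2
    refine ⟨MulAut.conjNormal g ⟨z, hQQZ hz⟩, ?_, ?_⟩
    · rw [MulAut.conjNormal_apply]
      exact Subgroup.Normal.conj_mem inferInstance z hz g
    · rw [wt_smul_def, ← MulAut.mul_apply, ← map_mul, inv_mul_cancel, map_one]
      exact hχz

end Core

end Cfsg.Agent.H562.FpfCore
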